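import Mathlib
import Cfsg.Agent.Lib.Helper57.OPar.Defs

/-!
# OPAR (S5989), sub-project [PDER+]: the package [KB]

The shift matrix `M = sh F d h d` for `d = 2 h + 1`: `M ^ 3 = 0 ≠ M`, the kernel of
`N = xM M - 1` is totally isotropic for the polar form of the plus-type form, and `N ^ 2` has rank
at most `2`.
-/

set_option autoImplicit false
open scoped MatrixGroups
open Matrix

namespace Cfsg.Agent.Lib.Helper8.OPar

open Cfsg.Agent.Lib.Helper57.OPar

universe u

section

variable {F : Type u} [Field F] {n : ℕ}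

theorem sum_shift_right (h : ℕ) (i : Fin n) (f : Fin n → F) :
    ∑ j : Fin n, (if j.val = i.val + h then f j else 0) =
      if hi : i.val + h < n then f ⟨i.val + h, hi⟩ else 0 := by
  by_cases hi : i.val + h < n
  · rw [dif_pos hi, Finset.sum_eq_single (⟨i.val + h, hi⟩ : Fin n)]
    · simp
    · intro b _ hb
      rw [if_neg]
      intro h'
      exact hb (Fin.ext h')
    · intro h'
      exact absurd (Finset.mem_univ _) h'
  · rw [dif_neg hi]
    apply Finset.sum_eq_zero
    intro j _
    rw [if_neg]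
    intro h'
    exact hi (h' ▸ j.isLt)

theorem sum_shift_left (h : ℕ) (k : Fin n) (f : Fin n → F) :
    ∑ i : Fin n, (if k.val = i.val + h then f i else 0) =
      if hk : h ≤ k.val then f ⟨k.val - h, lt_of_le_of_lt (Nat.sub_le _ _) k.isLt⟩ else 0 := by
  by_cases hk : h ≤ k.val
  · rw [dif_pos hk, Finset.sum_eq_single
      (⟨k.val - h, lt_of_le_of_lt (Nat.sub_le _ _) k.isLt⟩ : Fin n)]
    · rw [if_pos]
      show k.val = k.val - h + h
      omega
    · intro b _ hb
      rw [if_neg]
      intro h'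
      apply hb
      apply Fin.ext
      show b.val = k.val - h
      omega
    · intro h'
      exact absurd (Finset.mem_univ _) h'
  · rw [dif_neg hk]
    apply Finset.sum_eq_zero
    intro j _
    rw [if_neg]
    intro h'
    apply hk
    omega

end

/-- **[KB]** -/
theorem pkgKB : PkgKB.{u} := by
  intro F _ d h hh hd
  subst hd
  obtain ⟨M, hM⟩ : ∃ M : Matrix (Fin (2 * h + 1)) (Fin (2 * h + 1)) F,
      M = sh F (2 * h + 1) h (2 * h + 1) := ⟨_, rfl⟩
  rw [← hM]
  have hMe : ∀ i k : Fin (2 * h + 1), M i k = if k.val = i.val + h then 1 else 0 := by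
    intro i k
    rw [hM]
    unfold sh
    simp only [Matrix.of_apply]
    by_cases hk : k.val = i.val + h
    · rw [if_pos ⟨hk, i.isLt⟩, if_pos hk]
    · rw [if_neg (fun h' => hk h'.1), if_neg hk]
  -- action on vectors
  have hMv : ∀ (a : Fin (2 * h + 1) → F) (i : Fin (2 * h + 1)),
      (M *ᵥ a) i = if hi : i.val + h < 2 * h + 1 then a ⟨i.val + h, hi⟩ else 0 := by
    intro a i
    rw [← sum_shift_right h i a]
    simp only [Matrix.mulVec, dotProduct, hMe, ite_mul, one_mul, zero_mul]
  have hMtv : ∀ (b : Fin (2 * h + 1) → F) (k : Fin (2 * h + 1)),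
      (Mᵀ *ᵥ b) k = if hk : h ≤ k.val then
        b ⟨k.val - h, lt_of_le_of_lt (Nat.sub_le _ _) k.isLt⟩ else 0 := by
    intro b k
    rw [← sum_shift_left h k b]
    simp only [Matrix.mulVec, dotProduct, Matrix.transpose_apply, hMe, ite_mul, one_mul, zero_mul]
  -- M * M
  have hMMv : ∀ (a : Fin (2 * h + 1) → F) (i : Fin (2 * h + 1)),
      ((M * M) *ᵥ a) i = if i.val = 0 then a ⟨2 * h, by omega⟩ else 0 := by
    intro a i
    rw [← Matrix.mulVec_mulVec, hMv]
    by_cases hi : i.val + h < 2 * h + 1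
    · rw [dif_pos hi, hMv]
      by_cases hi0 : i.val = 0
      · rw [if_pos hi0, dif_pos (by show i.val + h + h < 2 * h + 1; omega)]
        congr 1
        apply Fin.ext
        show i.val + h + h = 2 * h
        omega
      · rw [if_neg hi0, dif_neg (by show ¬ (i.val + h + h < 2 * h + 1); omega)]
    · rw [dif_neg hi, if_neg (by omega)]
  have hMMtv : ∀ (b : Fin (2 * h + 1) → F) (k : Fin (2 * h + 1)),
      ((Mᵀ * Mᵀ) *ᵥ b) k = if k.val = 2 * h then b ⟨0, by omega⟩ else 0 := by
    intro b k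
    rw [← Matrix.mulVec_mulVec, hMtv]
    by_cases hk : h ≤ k.val
    · rw [dif_pos hk, hMtv]
      by_cases hk0 : k.val = 2 * h
      · rw [if_pos hk0, dif_pos (by show h ≤ k.val - h; omega)]
        congr 1
        apply Fin.ext
        show k.val - h - h = 0
        omega
      · rw [if_neg hk0, dif_neg (by show ¬ (h ≤ k.val - h); have := k.isLt; omega)]
    · rw [dif_neg hk, if_neg (by omega)]
  have hM3 : M * M * M = 0 := by
    have h1 : ∀ a : Fin (2 * h + 1) → F, (M * M * M) *ᵥ a = 0 := by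
      intro a
      ext i
      rw [← Matrix.mulVec_mulVec, hMMv, hMv]
      rw [dif_neg (by show ¬ (2 * h + h < 2 * h + 1); omega)]
      simp
    ext i k
    have h2 := congrFun (h1 (Pi.single k 1)) i
    rw [Matrix.mulVec_single_one] at h2
    simpa using h2
  have hM0 : M ≠ 0 := by
    intro h0
    have h1 := hMe ⟨0, by omega⟩ ⟨h, by omega⟩
    rw [h0, if_pos (by simp)] at h1
    simp at h1
  have hMt3 : Mᵀ * Mᵀ * Mᵀ = 0 := by
    rw [← Matrix.transpose_mul, ← Matrix.transpose_mul, ← Matrix.mul_assoc, hM3,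
      Matrix.transpose_zero]
  have hN : xM M - 1 = Matrix.fromBlocks M 0 0 (-Mᵀ + Mᵀ * Mᵀ) := by
    unfold xM
    rw [← Matrix.fromBlocks_one, sub_eq_add_neg, Matrix.fromBlocks_neg, Matrix.fromBlocks_add]
    congr 1
    · abel
    · simp
    · simp
    · abel
  have hNN : (xM M - 1) * (xM M - 1) = Matrix.fromBlocks (M * M) 0 0 (Mᵀ * Mᵀ) := by
    have e1 : Mᵀ * (Mᵀ * Mᵀ) = 0 := by rw [← Matrix.mul_assoc]; exact hMt3
    have e2 : Mᵀ * Mᵀ * (Mᵀ * Mᵀ) = 0 := by rw [← Matrix.mul_assoc, hMt3, Matrix.zero_mul]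
    rw [hN, Matrix.fromBlocks_multiply]
    congr 1
    · simp
    · simp
    · simp
    · rw [Matrix.zero_mul, zero_add, add_mul, mul_add, mul_add, neg_mul_neg, neg_mul, mul_neg,
        e1, e2, hMt3]
      simp
  -- the kernel of N
  have key : ∀ w : Fin (2 * h + 1) ⊕ Fin (2 * h + 1) → F, (xM M - 1) *ᵥ w = 0 →
      (∀ k : Fin (2 * h + 1), h ≤ k.val → w (Sum.inl k) = 0) ∧
      (∀ i : Fin (2 * h + 1), i.val ≤ h → w (Sum.inr i) = 0) := by
    intro w hw
    rw [hN, Matrix.fromBlocks_mulVec] at hw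
    have h1 : ∀ i, (M *ᵥ (w ∘ Sum.inl)) i = 0 := by
      intro i
      have := congrFun hw (Sum.inl i)
      simpa using this
    have h2 : ∀ k, -(Mᵀ *ᵥ (w ∘ Sum.inr)) k + ((Mᵀ * Mᵀ) *ᵥ (w ∘ Sum.inr)) k = 0 := by
      intro k
      have := congrFun hw (Sum.inr k)
      simpa [Matrix.add_mulVec, Matrix.neg_mulVec] using this
    constructor
    · intro k hk
      have h3 := h1 ⟨k.val - h, lt_of_le_of_lt (Nat.sub_le _ _) k.isLt⟩
      rw [hMv, dif_pos (by show k.val - h + h < 2 * h + 1; have := k.isLt; omega)] at h3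
      have h4 : (⟨k.val - h + h, by have := k.isLt; omega⟩ : Fin (2 * h + 1)) = k := by
        apply Fin.ext
        show k.val - h + h = k.val
        omega
      simp only [Function.comp_apply] at h3
      rw [h4] at h3
      exact h3
    · have hb0 : w (Sum.inr ⟨0, by omega⟩) = 0 := by
        have h3 := h2 ⟨h, by omega⟩
        rw [hMtv, hMMtv, dif_pos (le_refl h), if_neg (by show ¬ (h = 2 * h); omega)] at h3
        simp only [Function.comp_apply, add_zero, neg_eq_zero] at h3
        have h4 : (⟨h - h, by omega⟩ : Fin (2 * h + 1)) = ⟨0, by omega⟩ := by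
          apply Fin.ext
          show h - h = 0
          omega
        rw [h4] at h3
        exact h3
      intro i hi
      have h3 := h2 ⟨i.val + h, by omega⟩
      rw [hMtv, hMMtv, dif_pos (by show h ≤ i.val + h; omega)] at h3
      simp only [Function.comp_apply] at h3
      rw [hb0] at h3
      have h4 : (⟨i.val + h - h, by omega⟩ : Fin (2 * h + 1)) = i := by
        apply Fin.ext
        show i.val + h - h = i.val
        omega
      rw [h4] at h3
      simpa using h3
  refine ⟨hM3, hM0, ?_, ?_⟩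
  · intro u v hu hv
    obtain ⟨ku1, ku2⟩ := key u hu
    obtain ⟨kv1, kv2⟩ := key v hv
    unfold QuadraticMap.polar Cfsg.quadFormPlus
    rw [← Finset.sum_sub_distrib, ← Finset.sum_sub_distrib]
    apply Finset.sum_eq_zero
    intro i _
    simp only [Pi.add_apply]
    by_cases hi : h ≤ i.val
    · rw [ku1 i hi, kv1 i hi]; ring
    · rw [ku2 i (by omega), kv2 i (by omega)]; ring
  · rw [hNN]
    obtain ⟨g, hg⟩ : ∃ g : (Fin 2 → F) →ₗ[F] (Fin (2 * h + 1) ⊕ Fin (2 * h + 1) → F),
        ∀ c, g c = c 0 • Pi.single (Sum.inl (⟨0, by omega⟩ : Fin (2 * h + 1))) (1 : F) +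
          c 1 • Pi.single (Sum.inr (⟨2 * h, by omega⟩ : Fin (2 * h + 1))) (1 : F) :=
      ⟨(LinearMap.proj 0).smulRight (Pi.single (Sum.inl (⟨0, by omega⟩ : Fin (2 * h + 1))) (1 : F))
        + (LinearMap.proj 1).smulRight
          (Pi.single (Sum.inr (⟨2 * h, by omega⟩ : Fin (2 * h + 1))) (1 : F)), fun c => rfl⟩
    have hle : LinearMap.range (Matrix.toLin' (Matrix.fromBlocks (M * M) 0 0 (Mᵀ * Mᵀ))) ≤
        LinearMap.range g := by
      rintro _ ⟨w, rfl⟩
      refine ⟨![w (Sum.inl ⟨2 * h, by omega⟩), w (Sum.inr ⟨0, by omega⟩)], ?_⟩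
      rw [hg, Matrix.toLin'_apply, Matrix.fromBlocks_mulVec]
      ext (i | k)
      · simp only [Pi.add_apply, Pi.smul_apply, Sum.elim_inl, Matrix.zero_mulVec, add_zero,
          Pi.zero_apply, Matrix.cons_val_zero, Matrix.cons_val_one, smul_eq_mul, Pi.single_apply,
          Sum.inl.injEq, reduceCtorEq, if_false, mul_zero, hMMv, Function.comp_apply]
        by_cases hi0 : i.val = 0
        · rw [if_pos hi0, if_pos (Fin.ext hi0)]; ring
        · rw [if_neg hi0, if_neg (fun h' => hi0 (congrArg Fin.val h'))]; ring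
      · simp only [Pi.add_apply, Pi.smul_apply, Sum.elim_inr, Matrix.zero_mulVec, zero_add,
          Pi.zero_apply, Matrix.cons_val_zero, Matrix.cons_val_one, smul_eq_mul, Pi.single_apply,
          Sum.inr.injEq, reduceCtorEq, if_false, mul_zero, hMMtv, Function.comp_apply]
        by_cases hk0 : k.val = 2 * h
        · rw [if_pos hk0, if_pos (Fin.ext hk0)]; ring
        · rw [if_neg hk0, if_neg (fun h' => hk0 (congrArg Fin.val h'))]; ring
    calc Module.finrank F (LinearMap.range (Matrix.toLin'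
          (Matrix.fromBlocks (M * M) 0 0 (Mᵀ * Mᵀ))))
        ≤ Module.finrank F (LinearMap.range g) := Submodule.finrank_mono hle
      _ ≤ Module.finrank F (Fin 2 → F) := LinearMap.finrank_range_le g
      _ = 2 := by simp

end Cfsg.Agent.Lib.Helper8.OPar
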